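import Cfsg.Agent.H507.Ab.RowE7
import Cfsg.Agent.H157.Ab.X1
import Cfsg.Agent.H316.Ab.X3Inst
import Cfsg.Agent.H197.Ab.X3
import Cfsg.Agent.H332.Ab.PB
import Cfsg.Agent.H498.Ab.Def

/-!
# Abelian subgroups of `E₇(q)`: the row (helper507, for S2501)

* `ab3_E7` : `|A| ^ 3 < |G|` for every abelian subgroup `A` of `G = E₇(q)`.
-/

set_option autoImplicit false

namespace Cfsg.Agent.H507.Ab

open Cfsg Cfsg.Lie

/-- the group itself -/
theorem ab3_chev (F : Type) [Field F] [Fintype F] : H498.Ab.Ab3 ↥(chevE7.group F) := fun A hA =>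
  ab3_of H157.Ab.x1 H332.Ab.PB.pbE7 (H316.Ab.sb_E7 H197.Ab.X3.x3) F A hA

/-- **The row of `E₇(q)`.** -/
theorem ab3_E7 {G : Type*} [Group G] [Finite G] [IsSimpleGroup G] (h : Cfsg.Lie.IsoE7 G) : H498.Ab.Ab3 G := by
  obtain ⟨F, _, _, ⟨e⟩⟩ := h
  exact H498.Ab.Ab3.congr e.symm (ab3_chev F)

end Cfsg.Agent.H507.Ab
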