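import Cfsg.Agent.H157.Ab.Rows
import Cfsg.Agent.H400.LieLocal
import Cfsg.Agent.S1064

/-!
# Abelian subgroups of `E₇(q)` (helper507, for S2501)

* `num_two` : an abelian `A` with `|A|² ≤ a² s`;
* `ab3_of` : `|A|³ < |E₇(q)|` for every abelian subgroup, from the mixture lemma `X1` and the bounds `PBE7`, `SB`.
-/

set_option autoImplicit false
set_option linter.unusedSectionVars false

namespace Cfsg.Agent.H507.Ab

open Cfsg Cfsg.Lie Cfsg.Agent Cfsg.Agent.H157.Ab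

/-- the order of `E₇(q)` is at least `q ^ 126 / 2` -/
theorem card_ge {F : Type} [Field F] [Fintype F] {q : ℕ} (hq : Fintype.card F = q) :
    q ^ 126 ≤ 2 * Nat.card ↥(chevE7.group F) := by
  have h := S1064.result hq
  have hq2 : 2 ≤ q := by rw [← hq]; exact Fintype.one_lt_card
  have h1 : ∀ k : ℕ, q ^ k ≤ q ^ (k + 1) - 1 := by
    intro k
    have h2 : 1 ≤ q ^ k := Nat.one_le_pow _ _ (by omega)
    have h3 : 2 * q ^ k ≤ q ^ (k + 1) := by rw [pow_succ, mul_comm]; exact Nat.mul_le_mul_left _ hq2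
    omega
  have hg : Nat.gcd 2 (q - 1) ≤ 2 := Nat.gcd_le_left _ (by norm_num)
  calc q ^ 126 = q ^ 63 * q ^ 1 * q ^ 5 * q ^ 7 * q ^ 9 * q ^ 11 * q ^ 13 * q ^ 17 := by
        rw [← pow_add, ← pow_add, ← pow_add, ← pow_add, ← pow_add, ← pow_add, ← pow_add]
    _ ≤ q ^ 63 * (q ^ 2 - 1) * (q ^ 6 - 1) * (q ^ 8 - 1) * (q ^ 10 - 1) * (q ^ 12 - 1) * (q ^ 14 - 1) *
        (q ^ 18 - 1) := by
        gcongr <;> exact h1 _
    _ = Nat.gcd 2 (q - 1) * Nat.card ↥(chevE7.group F) := h.symm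
    _ ≤ 2 * Nat.card ↥(chevE7.group F) := Nat.mul_le_mul_right _ hg

theorem cop_le {p n : ℕ} (hn : n ≠ 0) : cop p n ≤ n := Nat.le_of_dvd (Nat.pos_of_ne_zero hn) (Nat.ordCompl_dvd n p)

theorem cop_eq {p k m n : ℕ} (hp : p.Prime) (hm : ¬ p ∣ m) (hn : n = p ^ k * m) : cop p n = m := by
  have hm0 : m ≠ 0 := by rintro rfl; exact hm (dvd_zero _)
  unfold cop
  have h1 : n.factorization p = k := by
    rw [hn, Nat.factorization_mul (pow_ne_zero _ hp.ne_zero) hm0, Finsupp.add_apply, hp.factorization_pow,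
      Finsupp.single_eq_same, Nat.factorization_eq_zero_of_not_dvd hm, add_zero]
  rw [h1, hn, Nat.mul_div_cancel_left _ (pow_pos hp.pos _)]

theorem cop_two : cop 2 2903040 = 2835 := cop_eq (k := 10) Nat.prime_two (by norm_num) (by norm_num)

theorem cop_three : cop 3 2903040 = 35840 := cop_eq (k := 4) Nat.prime_three (by norm_num) (by norm_num)

/-- the prime-to-`p` part of the order of the Weyl group is at most `q ^ 10` if `q ≥ 3` -/
theorem cop_le_pow {F : Type} [Field F] [Fintype F] {p : ℕ} [Fact p.Prime] [CharP F p]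
    (h3 : 3 ≤ Fintype.card F) : cop p 2903040 ≤ Fintype.card F ^ 10 := by
  set q := Fintype.card F with hq
  obtain ⟨n, hp, hn⟩ := FiniteField.card F p
  by_cases h5 : 5 ≤ q
  · calc cop p 2903040 ≤ 2903040 := cop_le (by norm_num)
      _ ≤ 5 ^ 10 := by norm_num
      _ ≤ q ^ 10 := Nat.pow_le_pow_left h5 _
  · have h34 : q = 3 ∨ q = 4 := by omega
    have hn' : q = p ^ (n : ℕ) := hn
    rcases h34 with h | h
    · have h6 : p ∣ 3 := by
        rw [← h, hn']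
        exact dvd_pow_self p n.pos.ne'
      have h7 : p = 3 := (Nat.prime_dvd_prime_iff_eq hp Nat.prime_three).1 h6
      rw [h7, h, cop_three]
      norm_num
    · have h6 : p ∣ 2 ^ 2 := by
        rw [show (2 : ℕ) ^ 2 = q by rw [h]; norm_num, hn']
        exact dvd_pow_self p n.pos.ne'
      have h7 : p = 2 := (Nat.prime_dvd_prime_iff_eq hp Nat.prime_two).1 (hp.dvd_of_dvd_pow h6)
      rw [h7, h, cop_two]
      norm_num

/-- the numerics, `q ≥ 3` -/
theorem num_big {q w N A : ℕ} (h3 : 3 ≤ q) (hw : w ≤ q ^ 10) (hN : q ^ 126 ≤ 2 * N)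
    (hA : A ^ 2 ≤ (q ^ 32) ^ 2 * (w * (q + 1) ^ 7)) : A ^ 3 < N := by
  have h1 : (q + 1) ^ 3 ≤ q ^ 4 := by
    have h2 : (q + 1) ^ 3 ≤ q ^ 3 * 3 := by nlinarith [sq_nonneg q, Nat.zero_le (q ^ 3), mul_le_mul h3 h3 (by omega) (by omega)]
    calc (q + 1) ^ 3 ≤ q ^ 3 * 3 := h2
      _ ≤ q ^ 3 * q := Nat.mul_le_mul_left _ h3
      _ = q ^ 4 := by ring
  have h2 : (A ^ 3) ^ 2 ≤ q ^ 250 := by
    calc (A ^ 3) ^ 2 = (A ^ 2) ^ 3 := by ring
      _ ≤ ((q ^ 32) ^ 2 * (w * (q + 1) ^ 7)) ^ 3 := Nat.pow_le_pow_left hA _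
      _ = q ^ 192 * w ^ 3 * ((q + 1) ^ 3) ^ 7 := by ring
      _ ≤ q ^ 192 * (q ^ 10) ^ 3 * (q ^ 4) ^ 7 := by gcongr
      _ = q ^ 250 := by ring
  have h3' : q ^ 250 * 4 < (q ^ 126) ^ 2 := by
    have h4 : 4 < q ^ 2 := by nlinarith
    calc q ^ 250 * 4 < q ^ 250 * q ^ 2 := Nat.mul_lt_mul_of_pos_left h4 (by positivity)
      _ = (q ^ 126) ^ 2 := by ring
  have h5 : (q ^ 126) ^ 2 ≤ (2 * N) ^ 2 := Nat.pow_le_pow_left hN _
  have h6 : (2 * A ^ 3) ^ 2 < (2 * N) ^ 2 := by nlinarith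
  have h7 := lt_of_pow_lt_pow_left₀ 2 (by omega) h6
  omega

/-- the numerics, `q = 2` -/
theorem num_two {N A : ℕ} (hN : N = 2 ^ 63 * (2 ^ 2 - 1) * (2 ^ 6 - 1) * (2 ^ 8 - 1) * (2 ^ 10 - 1) * (2 ^ 12 - 1) *
    (2 ^ 14 - 1) * (2 ^ 18 - 1)) (hA : A ^ 2 ≤ (2 ^ 32) ^ 2 * (2835 * (2 + 1) ^ 7)) : A ^ 3 < N := by
  have h2 : (A ^ 3) ^ 2 ≤ ((2 ^ 32) ^ 2 * (2835 * (2 + 1) ^ 7)) ^ 3 := by
    calc (A ^ 3) ^ 2 = (A ^ 2) ^ 3 := by ring
      _ ≤ _ := Nat.pow_le_pow_left hA _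
  have h3 : ((2 ^ 32) ^ 2 * (2835 * (2 + 1) ^ 7)) ^ 3 < N ^ 2 := by
    rw [hN]
    norm_num
  exact lt_of_pow_lt_pow_left₀ 2 (by omega) (h2.trans_lt h3)

theorem char_exc (F : Type) [Field F] [Fintype F] (p : ℕ) [Fact p.Prime] [CharP F p] :
    IsExceptionalChevChar p ↥(chevE7.group F) :=
  ⟨F, inferInstance, inferInstance, inferInstance, Or.inr (Or.inr (Or.inr (Or.inl ⟨MulEquiv.refl _⟩)))⟩

theorem lie_char (F : Type) [Field F] [Fintype F] (p : ℕ) [Fact p.Prime] [CharP F p] :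
    IsLieTypeChar p ↥(chevE7.group F) :=
  Or.inr (Or.inr (Or.inr (Or.inr (Or.inr (Or.inr (Or.inl (char_exc F p)))))))

/-- the `p`-local subgroups of `E₇(q)` have characteristic `p` -/
theorem locChar (F : Type) [Field F] [Fintype F] (p : ℕ) [Fact p.Prime] [CharP F p] :
    BpLieP.Big.LocChar p ↥(chevE7.group F) := by
  have hs := H400.LieSimple.isSimple_of_lie (lie_char F p)
  exact H400.LieLocal.locChar_of_filt (KFacts.RgdLieCharP.hasFilt_of_lie
    (Or.inr (Or.inr (Or.inr (Or.inr (Or.inr (Or.inr (Or.inl (char_exc F p)))))))))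

/-- **The row of `E₇(q)`.** -/
theorem ab3_of (hX : X1) (hPB : PBE7) (hSB : SBCh chevE7 7 2903040) (F : Type) [Field F] [Fintype F]
    (A : Subgroup ↥(chevE7.group F)) (hA : IsMulCommutative A) : Nat.card A ^ 3 < Nat.card ↥(chevE7.group F) := by
  obtain ⟨p, hpc⟩ := CharP.exists F
  obtain ⟨n, hp, hn⟩ := FiniteField.card F p
  have hpf : Fact p.Prime := ⟨hp⟩
  have hfin : Finite ↥(chevE7.group F) := inferInstance
  set q := Fintype.card F with hq
  have hq2 : 2 ≤ q := Fintype.one_lt_card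
  set N := Nat.card ↥(chevE7.group F) with hN
  set s := cop p 2903040 * (q + 1) ^ 7 with hs
  have h1 : PB p ↥(chevE7.group F) (q ^ 32) := hPB F p
  have h2 : SB p ↥(chevE7.group F) s := hSB F p
  -- the bound for the square
  have h3 : Nat.card A ^ 2 ≤ (q ^ 32) ^ 2 * s := by
    by_cases hpA : p ∣ Nat.card A
    · have h4 := hX ↥(chevE7.group F) p (locChar F p) 1 2 (by norm_num) (fun f hf => by
        have h5 : 2 ≤ p ^ f := le_trans hp.two_le (Nat.le_self_pow (by omega) p)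
        rw [pow_one, pow_mul, pow_two]
        nlinarith) (q ^ 32) s h1 h2 A hA hpA
      rwa [show 2 - 1 = 1 from rfl, pow_one] at h4
    · have h4 := h2 A hA hpA
      have h5 : s ≤ (q ^ 32) ^ 2 := by
        have h6 : cop p 2903040 ≤ 2903040 := cop_le (by norm_num)
        have h7 : q + 1 ≤ q ^ 2 := by nlinarith
        calc s ≤ 2903040 * (q ^ 2) ^ 7 := by
              rw [hs]; gcongr
          _ ≤ 2 ^ 50 * (q ^ 2) ^ 7 := by gcongr; norm_num
          _ ≤ q ^ 50 * (q ^ 2) ^ 7 := by gcongr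
          _ = (q ^ 32) ^ 2 := by ring
      calc Nat.card A ^ 2 = Nat.card A * Nat.card A := pow_two _
        _ ≤ s * s := Nat.mul_le_mul h4 h4
        _ ≤ (q ^ 32) ^ 2 * s := Nat.mul_le_mul_right _ h5
  by_cases h3q : 3 ≤ q
  · exact num_big h3q (cop_le_pow (F := F) h3q) (card_ge (F := F) rfl) h3
  · have hq' : q = 2 := by omega
    have hp2 : p = 2 := by
      have h6 : p ∣ 2 := by
        rw [← hq', hn]
        exact dvd_pow_self p n.pos.ne'
      exact (Nat.prime_dvd_prime_iff_eq hp Nat.prime_two).1 h6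
    refine num_two ?_ ?_
    · have h7 := S1064.result (F := F) (q := q) rfl
      rw [hq'] at h7
      rw [hN, ← h7]
      simp
    · rw [hs, hq', hp2, cop_two] at h3
      exact h3

end Cfsg.Agent.H507.Ab
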